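import Cfsg.Agent.H432.PG.Base
import Cfsg.Agent.H432.PG.Num
import Cfsg.Agent.H371.Core.Fam
import Cfsg.Agent.S1059

/-!
# `G₂(q)`, `F₄(q)`, `E₈(q)` do not have the prime graph of `PSL_2(p)` (helper432)
-/

set_option autoImplicit false
set_option linter.unusedSectionVars false

namespace Cfsg.Agent.H432.PG

open Cfsg Cfsg.Lie Cfsg.Lie.ChevalleyDatum
open Cfsg.Agent.H378.ExcAdj Cfsg.Agent.H371.CycEval Cfsg.Agent.H371.Core

universe u

namespace PB
variable {S : Type*} [Group S] {p n m : ℕ} (B : PB S p n m)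
include B

theorem cg {N : ℕ} (hN : ∃ a : ℕ, N = p ^ a) {X : ℤ} (hX : ∀ r : ℕ, r.Prime → (r : ℤ) ∣ X → r ∣ Nat.card S) :
    Num.Cg p N X := fun r hr hd hne => B.pm' hN hr (hX r hr hd) hne

theorem torus [Finite S] {q : ℕ} (L : List (ℕ × ℕ))
    (h1 : ∀ r, r.Prime → r ∣ Nat.card S → ¬ H94.PG.Conn S 2 r → ∃ t ∈ L, od q r = t.1)
    (h2 : ∀ t ∈ L, Tor S q t.1 t.2) : ∃ t ∈ L, (∃ a : ℕ, t.2 = p ^ a) ∧ p ∣ t.2 := by
  obtain ⟨t, ht, hpt⟩ := h1 p B.A.hp B.dp B.not_conn_p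
  have T := h2 t ht
  exact ⟨t, ht, B.pow_eq T.ex (T.dv p B.A.hp hpt), T.dv p B.A.hp hpt⟩

end PB

theorem tor_dvd {S : Type*} [Group S] {q m : ℕ} {X : ℤ} (T : Tor S q m X.natAbs) {r : ℕ} (h : (r : ℤ) ∣ X) :
    r ∣ Nat.card S := by
  obtain ⟨g, hg⟩ := T.ex
  refine (Int.natCast_dvd.1 h).trans ?_
  rw [← hg]
  exact orderOf_dvd_natCard g

/-! ### `G₂(q)` -/

theorem not_G2' (F : Type u) [Field F] [Finite F] (hF : 3 ≤ Nat.card F) {p n m : ℕ}
    (B : PB ↥(chevG2.group F) p n m) : False := by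
  obtain ⟨q, hq⟩ : ∃ q, q = Nat.card F := ⟨_, rfl⟩
  have T3 := tor_G2_3 F
  have T6 := tor_G2_6 F
  rw [← hq] at hF T3 T6
  obtain ⟨t, ht, hN, hd⟩ := B.torus (q := q) [(3, (ev 3 q).natAbs), (6, (ev 6 q).natAbs)]
    (by
      intro r hr hd hnc
      rcases adj_G2 F hr hd with h | h | h | h
      · rw [h] at hnc
        exact absurd Relation.ReflTransGen.refl hnc
      · exact absurd h.conn.symm hnc
      · exact ⟨(3, (ev 3 q).natAbs), by simp, by rw [hq]; exact h⟩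
      · exact ⟨(6, (ev 6 q).natAbs), by simp, by rw [hq]; exact h⟩)
    (by
      intro t ht
      simp only [List.mem_cons, List.not_mem_nil, or_false] at ht
      rcases ht with rfl | rfl
      · exact T3
      · exact T6)
  have h3 : (((ev 3 q).natAbs : ℕ) : ℤ) = (q : ℤ) ^ 2 + q + 1 := by
    rw [← ev3, Int.natCast_natAbs, abs_of_pos (ev_pos (by norm_num) _)]
  have h6 : (((ev 6 q).natAbs : ℕ) : ℤ) = (q : ℤ) ^ 2 - q + 1 := by
    rw [← ev6, Int.natCast_natAbs, abs_of_pos (ev_pos (by norm_num) _)]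
  have hcard : Nat.card ↥(chevG2.group F) = q ^ 6 * (q ^ 2 - 1) * (q ^ 6 - 1) := by
    have : Fintype F := Fintype.ofFinite F
    exact Cfsg.Agent.S1059.result (by rw [hq, Nat.card_eq_fintype_card])
  have hq2 : q ^ 2 - 1 ∣ Nat.card ↥(chevG2.group F) := by
    rw [hcard]
    exact Dvd.intro_left (q ^ 6) rfl |>.mul_right _
  have hz2 : ((q ^ 2 - 1 : ℕ) : ℤ) = (q : ℤ) ^ 2 - 1 := by
    have : 1 ≤ q ^ 2 := Nat.one_le_pow _ _ (by omega)
    push_cast [Nat.cast_sub this]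
    ring
  have c1 := B.cg hN (X := (q : ℤ) - 1) (fun r _ h => (Int.natCast_dvd_natCast.1 (by
    rw [hz2]
    exact h.trans (Dvd.intro ((q : ℤ) + 1) (by ring)))).trans hq2)
  have c2 := B.cg hN (X := (q : ℤ) + 1) (fun r _ h => (Int.natCast_dvd_natCast.1 (by
    rw [hz2]
    exact h.trans (Dvd.intro ((q : ℤ) - 1) (by ring)))).trans hq2)
  have c3 := B.cg hN (X := (q : ℤ) ^ 2 + q + 1) (fun r _ h => tor_dvd T3 (by rw [ev3]; exact h))
  have c6 := B.cg hN (X := (q : ℤ) ^ 2 - q + 1) (fun r _ h => tor_dvd T6 (by rw [ev6]; exact h))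
  refine Num.num_G2 B.A.hp B.p_ge (q := q) (N := t.2) (by exact_mod_cast hF) ?_ (Int.natCast_dvd_natCast.2 hd) ?_
    c1 c2 c3 c6
  · obtain ⟨a, ha⟩ := hN
    exact ⟨a, by rw [ha]; push_cast; ring⟩
  · simp only [List.mem_cons, List.not_mem_nil, or_false] at ht
    rcases ht with rfl | rfl
    · exact Or.inl h3
    · exact Or.inr h6

/-- **No `G₂(q)`.** -/
theorem not_G2 {S : Type*} [Group S] (h : Cfsg.Lie.IsoChevG2 S) {p n m : ℕ} (B : PB S p n m) : False := by
  obtain ⟨F, _, _, hF, ⟨e⟩⟩ := h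
  exact not_G2' F (by rw [Nat.card_eq_fintype_card]; exact hF) (B.congr e)

/-! ### `F₄(q)` -/

theorem not_F4' (F : Type u) [Field F] [Finite F] {p n m : ℕ} (B : PB ↥(chevF4.group F) p n m) : False := by
  obtain ⟨q, hq⟩ : ∃ q, q = Nat.card F := ⟨_, rfl⟩
  have hF : 2 ≤ q := by rw [hq]; exact Finite.one_lt_card
  have T8 := tor_F4_8 F
  have T12 := tor_F4_12 F
  rw [← hq] at T8 T12
  obtain ⟨t, ht, hN, hd⟩ := B.torus (q := q) [(8, (ev 8 q).natAbs), (12, (ev 12 q).natAbs)]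
    (by
      intro r hr hd hnc
      rcases adj_F4 F hr hd with h | h | h | h
      · rw [h] at hnc
        exact absurd Relation.ReflTransGen.refl hnc
      · exact absurd h.conn.symm hnc
      · exact ⟨(8, (ev 8 q).natAbs), by simp, by rw [hq]; exact h⟩
      · exact ⟨(12, (ev 12 q).natAbs), by simp, by rw [hq]; exact h⟩)
    (by
      intro t ht
      simp only [List.mem_cons, List.not_mem_nil, or_false] at ht
      rcases ht with rfl | rfl
      · exact T8
      · exact T12)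
  have h8 : (((ev 8 q).natAbs : ℕ) : ℤ) = (q : ℤ) ^ 4 + 1 := by
    rw [← ev8, Int.natCast_natAbs, abs_of_pos (ev_pos (by norm_num) _)]
  have h12 : (((ev 12 q).natAbs : ℕ) : ℤ) = (q : ℤ) ^ 4 - (q : ℤ) ^ 2 + 1 := by
    rw [← ev12, Int.natCast_natAbs, abs_of_pos (ev_pos (by norm_num) _)]
  have c8 := B.cg hN (X := (q : ℤ) ^ 4 + 1) (fun r _ h => tor_dvd T8 (by rw [ev8]; exact h))
  have c12 := B.cg hN (X := (q : ℤ) ^ 4 - (q : ℤ) ^ 2 + 1) (fun r _ h => tor_dvd T12 (by rw [ev12]; exact h))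
  refine Num.num_F4 (q := q) (N := t.2) (by exact_mod_cast hF) B.A.hp (Int.natCast_dvd_natCast.2 hd) ?_ c8 c12
  simp only [List.mem_cons, List.not_mem_nil, or_false] at ht
  rcases ht with rfl | rfl
  · exact Or.inl h8
  · exact Or.inr h12

/-- **No `F₄(q)`.** -/
theorem not_F4 {S : Type*} [Group S] (h : Cfsg.Lie.IsoF4 S) {p n m : ℕ} (B : PB S p n m) : False := by
  obtain ⟨F, _, _, ⟨e⟩⟩ := h
  exact not_F4' F (B.congr e)

/-! ### `E₈(q)` -/

theorem not_E8' (F : Type u) [Field F] [Finite F] {p n m : ℕ} (B : PB ↥(chevE8.group F) p n m) : False := by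
  obtain ⟨q, hq⟩ : ∃ q, q = Nat.card F := ⟨_, rfl⟩
  have hF : 2 ≤ q := by rw [hq]; exact Finite.one_lt_card
  have T15 := tor_E8_15 F
  have T20 := tor_E8_20 F
  have T24 := tor_E8_24 F
  have T30 := tor_E8_30 F
  rw [← hq] at T15 T20 T24 T30
  obtain ⟨t, ht, hN, hd⟩ := B.torus (q := q) [(15, (ev 15 q).natAbs), (20, (ev 20 q).natAbs),
      (24, (ev 24 q).natAbs), (30, (ev 30 q).natAbs)]
    (by
      intro r hr hd hnc
      rcases adj_E8 F hr hd with h | h | h | h | h | h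
      · rw [h] at hnc
        exact absurd Relation.ReflTransGen.refl hnc
      · exact absurd h.conn.symm hnc
      · exact ⟨(15, (ev 15 q).natAbs), by simp, by rw [hq]; exact h⟩
      · exact ⟨(20, (ev 20 q).natAbs), by simp, by rw [hq]; exact h⟩
      · exact ⟨(24, (ev 24 q).natAbs), by simp, by rw [hq]; exact h⟩
      · exact ⟨(30, (ev 30 q).natAbs), by simp, by rw [hq]; exact h⟩)
    (by
      intro t ht
      simp only [List.mem_cons, List.not_mem_nil, or_false] at ht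
      rcases ht with rfl | rfl | rfl | rfl
      · exact T15
      · exact T20
      · exact T24
      · exact T30)
  have h15 : (((ev 15 q).natAbs : ℕ) : ℤ) = Num.e15 q := by
    rw [Int.natCast_natAbs, abs_of_pos (ev_pos (by norm_num) _)]
    exact ev15 _
  have h20 : (((ev 20 q).natAbs : ℕ) : ℤ) = Num.e20 q := by
    rw [Int.natCast_natAbs, abs_of_pos (ev_pos (by norm_num) _)]
    exact ev20 _
  have h24 : (((ev 24 q).natAbs : ℕ) : ℤ) = Num.e24 q := by
    rw [Int.natCast_natAbs, abs_of_pos (ev_pos (by norm_num) _)]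
    exact ev24 _
  have h30 : (((ev 30 q).natAbs : ℕ) : ℤ) = Num.e30 q := by
    rw [Int.natCast_natAbs, abs_of_pos (ev_pos (by norm_num) _)]
    exact ev30 _
  have c15 := B.cg hN (X := Num.e15 q) (fun r _ h => tor_dvd T15 (by rw [ev15]; exact h))
  have c24 := B.cg hN (X := Num.e24 q) (fun r _ h => tor_dvd T24 (by rw [ev24]; exact h))
  have c30 := B.cg hN (X := Num.e30 q) (fun r _ h => tor_dvd T30 (by rw [ev30]; exact h))
  refine Num.num_E8 B.A.hp (q := q) (N := t.2) (by exact_mod_cast hF) (Int.natCast_dvd_natCast.2 hd) ?_ c15 c24 c30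
  simp only [List.mem_cons, List.not_mem_nil, or_false] at ht
  rcases ht with rfl | rfl | rfl | rfl
  · exact Or.inl h15
  · exact Or.inr (Or.inl h20)
  · exact Or.inr (Or.inr (Or.inl h24))
  · exact Or.inr (Or.inr (Or.inr h30))

/-- **No `E₈(q)`.** -/
theorem not_E8 {S : Type*} [Group S] (h : Cfsg.Lie.IsoE8 S) {p n m : ℕ} (B : PB S p n m) : False := by
  obtain ⟨F, _, _, ⟨e⟩⟩ := h
  exact not_E8' F (B.congr e)

end Cfsg.Agent.H432.PG
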