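import Mathlib

/-!
# Fixed-point-free actions of elements of `SL_2(p)` (helper432)

`ρ : SL_2(p) →* R`, `R` a ring; "fixed-point-free" means that `ρ g - 1` is left cancellable.

* `quad`: elements of order `3` and `p` of `PSL_2(p)` fixed-point-free: `1 = 0` in `R` (`p > 5`);
* `frob`: elements of order `p` and of a prime order `t ∣ (p - 1) / 2` fixed-point-free: `p = 0` in `R`.
-/

set_option autoImplicit false

namespace Cfsg.Agent.H432.PG.ModRing

open Matrix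

variable {p : ℕ} [Fact p.Prime]

/-- upper unitriangular matrices -/
def T (j : ZMod p) : SpecialLinearGroup (Fin 2) (ZMod p) := ⟨!![1, j; 0, 1], by rw [Matrix.det_fin_two_of]; ring⟩

theorem T_mul (i j : ZMod p) : T i * T j = T (i + j) := by
  apply Subtype.ext
  change !![1, i; 0, 1] * !![1, j; 0, 1] = !![1, i + j; 0, 1]
  rw [Matrix.mul_fin_two]
  congr 1
  simp [add_comm]

theorem T_zero : (T 0 : SpecialLinearGroup (Fin 2) (ZMod p)) = 1 := by
  apply Subtype.ext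
  change !![(1 : ZMod p), 0; 0, 1] = 1
  rw [Matrix.one_fin_two]

theorem T_pow (j : ZMod p) (k : ℕ) : T j ^ k = T ((k : ZMod p) * j) := by
  induction k with
  | zero => rw [pow_zero, Nat.cast_zero, zero_mul, T_zero]
  | succ k ih => rw [pow_succ, ih, T_mul]; congr 1; push_cast; ring

theorem T_inv (j : ZMod p) : (T j)⁻¹ = T (-j) := by
  rw [inv_eq_iff_mul_eq_one, T_mul, add_neg_cancel, T_zero]

/-- the elements of order `3` modulo the center -/
def A : SpecialLinearGroup (Fin 2) (ZMod p) := ⟨!![0, -1; 1, -1], by rw [Matrix.det_fin_two_of]; ring⟩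

def B : SpecialLinearGroup (Fin 2) (ZMod p) := ⟨!![0, -1; 1, 1], by rw [Matrix.det_fin_two_of]; ring⟩

def w : SpecialLinearGroup (Fin 2) (ZMod p) := ⟨!![0, -1; 1, 0], by rw [Matrix.det_fin_two_of]; ring⟩

/-- diagonal matrices -/
def d (a b : ZMod p) (h : a * b = 1) : SpecialLinearGroup (Fin 2) (ZMod p) :=
  ⟨!![a, 0; 0, b], by rw [Matrix.det_fin_two_of, h]; ring⟩

theorem A_T : (A * T 2 : SpecialLinearGroup (Fin 2) (ZMod p)) = B := by
  apply Subtype.ext
  change !![(0 : ZMod p), -1; 1, -1] * !![1, 2; 0, 1] = !![0, -1; 1, 1]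
  rw [Matrix.mul_fin_two]
  congr 1
  norm_num

theorem A_T1 : (A * T 1 : SpecialLinearGroup (Fin 2) (ZMod p)) = w := by
  apply Subtype.ext
  change !![(0 : ZMod p), -1; 1, -1] * !![1, 1; 0, 1] = !![0, -1; 1, 0]
  rw [Matrix.mul_fin_two]
  congr 1
  norm_num

theorem A_pow : (A ^ 3 : SpecialLinearGroup (Fin 2) (ZMod p)) = 1 := by
  apply Subtype.ext
  rw [pow_succ, pow_succ, pow_one]
  change !![(0 : ZMod p), -1; 1, -1] * !![(0 : ZMod p), -1; 1, -1] * !![(0 : ZMod p), -1; 1, -1] = 1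
  rw [Matrix.mul_fin_two, Matrix.mul_fin_two, Matrix.one_fin_two]
  congr 1
  norm_num

theorem B_pow : (B ^ 3 : SpecialLinearGroup (Fin 2) (ZMod p)) = -1 := by
  apply Subtype.ext
  rw [pow_succ, pow_succ, pow_one]
  change !![(0 : ZMod p), -1; 1, 1] * !![(0 : ZMod p), -1; 1, 1] * !![(0 : ZMod p), -1; 1, 1] = -1
  rw [Matrix.mul_fin_two, Matrix.mul_fin_two, Matrix.one_fin_two]
  ext i j
  fin_cases i <;> fin_cases j <;> norm_num

theorem d_eq {h : ZMod p} (hh : 2 * h = 1) : d 2 h hh = T 2 * (w * T h * w⁻¹) * T 2 * w := by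
  have hw : (w⁻¹ : SpecialLinearGroup (Fin 2) (ZMod p)).1 = !![0, 1; -1, 0] := by
    rw [Matrix.SpecialLinearGroup.coe_inv, Matrix.adjugate_fin_two]
    simp [w]
  apply Subtype.ext
  change !![(2 : ZMod p), 0; 0, h] = !![1, 2; 0, 1] * (!![0, -1; 1, 0] * !![1, h; 0, 1] * (w⁻¹ : SpecialLinearGroup (Fin 2) (ZMod p)).1) *
    !![1, 2; 0, 1] * !![0, -1; 1, 0]
  rw [hw]
  simp only [Matrix.mul_fin_two]
  refine Matrix.ext fun i j => ?_
  fin_cases i <;> fin_cases j <;>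
    simp only [Matrix.of_apply, Matrix.cons_val', Matrix.cons_val_zero, Matrix.cons_val_one, Matrix.cons_val_fin_one,
      Fin.zero_eta, Fin.mk_one, Fin.isValue]
  · linear_combination (2 : ZMod p) * hh
  · linear_combination (-1 : ZMod p) * hh
  · linear_combination hh
  · ring

theorem d_T {a b : ZMod p} (h : a * b = 1) (j : ZMod p) : d a b h * T j = T (a * a * j) * d a b h := by
  apply Subtype.ext
  change !![a, 0; 0, b] * !![1, j; 0, 1] = !![1, a * a * j; 0, 1] * !![a, 0; 0, b]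
  rw [Matrix.mul_fin_two, Matrix.mul_fin_two]
  ext i k
  fin_cases i <;> fin_cases k <;> simp
  linear_combination (-a * j) * h

variable {R : Type*} [Ring R] (ρ : SpecialLinearGroup (Fin 2) (ZMod p) →* R)

omit [Fact p.Prime] in
theorem rho_inv (g : SpecialLinearGroup (Fin 2) (ZMod p)) : ρ g * ρ g⁻¹ = 1 := by
  rw [← map_mul, mul_inv_cancel, map_one]

omit [Fact p.Prime] in
theorem rho_inv' (g : SpecialLinearGroup (Fin 2) (ZMod p)) : ρ g⁻¹ * ρ g = 1 := by
  rw [← map_mul, inv_mul_cancel, map_one]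

/-- left cancellable -/
def Fpf (x : R) : Prop := ∀ r : R, (x - 1) * r = 0 → r = 0

omit [Fact p.Prime] in
theorem quad_of {x : R} (h : Fpf x) (h3 : x ^ 3 = 1) : x * x + x + 1 = 0 := by
  apply h
  have : (x - 1) * (x * x + x + 1) = x ^ 3 - 1 := by rw [pow_succ, pow_two]; noncomm_ring
  rw [this, h3, sub_self]

/-- **The quadratic trick.** -/
theorem quad (hp : 5 < p) (h1 : ρ (-1) = 1) (hA : Fpf (ρ A⁻¹)) (hB : Fpf (ρ B))
    (hT : ∀ j : ZMod p, j ≠ 0 → Fpf (ρ (T j))) : (1 : R) = 0 := by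
  have hp' : p.Prime := Fact.out
  set X := ρ A⁻¹ with hX
  set Y := ρ B with hY
  have hX2 : X * X + X + 1 = 0 := quad_of hA (by
    rw [hX, ← map_pow, inv_pow, A_pow, inv_one, map_one])
  have hY2 : Y * Y + Y + 1 = 0 := quad_of hB (by rw [hY, ← map_pow, B_pow, h1])
  have hX' : ρ A = -1 - X := by
    have h2 : ρ A * X = 1 := by rw [hX]; exact rho_inv ρ A
    have h3 : X * (-1 - X) = 1 := by
      have : X * (-1 - X) = 1 - (X * X + X + 1) := by noncomm_ring
      rw [this, hX2, sub_zero]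
    calc ρ A = ρ A * (X * (-1 - X)) := by rw [h3, mul_one]
      _ = (ρ A * X) * (-1 - X) := by rw [mul_assoc]
      _ = -1 - X := by rw [h2, one_mul]
  have hY' : ρ B⁻¹ = -1 - Y := by
    have h2 : ρ B⁻¹ * Y = 1 := by rw [hY]; exact rho_inv' ρ B
    have h3 : Y * (-1 - Y) = 1 := by
      have : Y * (-1 - Y) = 1 - (Y * Y + Y + 1) := by noncomm_ring
      rw [this, hY2, sub_zero]
    calc ρ B⁻¹ = ρ B⁻¹ * (Y * (-1 - Y)) := by rw [h3, mul_one]
      _ = (ρ B⁻¹ * Y) * (-1 - Y) := by rw [mul_assoc]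
      _ = -1 - Y := by rw [h2, one_mul]
  set c := X * Y + ρ B⁻¹ * ρ A with hc
  have hc' : c = X * Y + (-1 - Y) * (-1 - X) := by rw [hc, hX', hY']
  have hXX : X * X = -X - 1 := by
    have : X * X = (X * X + X + 1) - X - 1 := by noncomm_ring
    rw [this, hX2]; noncomm_ring
  have hYY : Y * Y = -Y - 1 := by
    have : Y * Y = (Y * Y + Y + 1) - Y - 1 := by noncomm_ring
    rw [this, hY2]; noncomm_ring
  have hcX : X * c = c * X := by
    have e1 : X * c = (X * X) * Y + X * Y * X + X * X + X * Y + X := by rw [hc']; noncomm_ring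
    have e2 : c * X = X * Y * X + Y * (X * X) + X * X + Y * X + X := by rw [hc']; noncomm_ring
    rw [e1, e2, hXX]; noncomm_ring
  have hcY : Y * c = c * Y := by
    have e1 : Y * c = Y * X * Y + (Y * Y) * X + Y * Y + Y * X + Y := by rw [hc']; noncomm_ring
    have e2 : c * Y = X * (Y * Y) + Y * X * Y + Y * Y + X * Y + Y := by rw [hc']; noncomm_ring
    rw [e1, e2, hYY]; noncomm_ring
  -- the subgroup commuting with `c`
  let C : Subgroup (SpecialLinearGroup (Fin 2) (ZMod p)) :=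
    { carrier := {g | ρ g * c = c * ρ g}
      one_mem' := by simp
      mul_mem' := by
        intro g h hg hh
        simp only [Set.mem_ofPred_eq] at hg hh ⊢
        rw [map_mul, mul_assoc, hh, ← mul_assoc, hg, mul_assoc]
      inv_mem' := by
        intro g hg
        simp only [Set.mem_ofPred_eq] at hg ⊢
        calc ρ g⁻¹ * c = ρ g⁻¹ * c * (ρ g * ρ g⁻¹) := by rw [rho_inv, mul_one]
          _ = ρ g⁻¹ * (c * ρ g) * ρ g⁻¹ := by noncomm_ring
          _ = (ρ g⁻¹ * ρ g) * c * ρ g⁻¹ := by rw [← hg]; noncomm_ring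
          _ = c * ρ g⁻¹ := by rw [rho_inv', one_mul] }
  have hAC : (A : SpecialLinearGroup (Fin 2) (ZMod p)) ∈ C := by
    have h3 : (A⁻¹ : SpecialLinearGroup (Fin 2) (ZMod p)) ∈ C := hcX
    simpa using C.inv_mem h3
  have hBC : (B : SpecialLinearGroup (Fin 2) (ZMod p)) ∈ C := hcY
  have hT2 : (T 2 : SpecialLinearGroup (Fin 2) (ZMod p)) ∈ C := by
    have h3 : (T 2 : SpecialLinearGroup (Fin 2) (ZMod p)) = A⁻¹ * B := by rw [← A_T]; group
    rw [h3]
    exact C.mul_mem (C.inv_mem hAC) hBC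
  obtain ⟨k, hk⟩ : ∃ k : ℕ, p = 2 * k + 1 := by
    have := hp'.eq_two_or_odd
    exact ⟨p / 2, by omega⟩
  have h2h : (2 : ZMod p) * ((k + 1 : ℕ) : ZMod p) = 1 := by
    have h3 : ((2 * (k + 1) : ℕ) : ZMod p) = ((p + 1 : ℕ) : ZMod p) := by congr 1; omega
    push_cast at h3 ⊢
    rw [h3]
    simp
  have hTj : ∀ j : ZMod p, (T j : SpecialLinearGroup (Fin 2) (ZMod p)) ∈ C := by
    intro j
    have h3 : (T j : SpecialLinearGroup (Fin 2) (ZMod p)) = (T 2) ^ (j * ((k + 1 : ℕ) : ZMod p)).val := by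
      rw [T_pow]
      congr 1
      rw [ZMod.natCast_zmod_val]
      linear_combination (-j) * h2h
    rw [h3]
    exact C.pow_mem hT2 _
  have hwC : (w : SpecialLinearGroup (Fin 2) (ZMod p)) ∈ C := by
    rw [← A_T1]
    exact C.mul_mem hAC (hTj 1)
  have hdC : d 2 _ h2h ∈ C := by
    rw [d_eq h2h]
    exact C.mul_mem (C.mul_mem (C.mul_mem (hTj 2) (C.mul_mem (C.mul_mem hwC (hTj _)) (C.inv_mem hwC))) (hTj 2)) hwC
  have hcT : c = ρ (T 2) + ρ (T (-2)) := by
    rw [hc, hX, hY, ← map_mul, ← map_mul, ← T_inv]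
    have h3 : (A⁻¹ * B : SpecialLinearGroup (Fin 2) (ZMod p)) = T 2 := by rw [← A_T]; group
    have h4 : (B⁻¹ * A : SpecialLinearGroup (Fin 2) (ZMod p)) = (T 2)⁻¹ := by rw [← A_T]; group
    rw [h3, h4]
  have hd : ρ (d 2 _ h2h) * c = c * ρ (d 2 _ h2h) := hdC
  have h5 : ρ (d 2 _ h2h) * c = (ρ (T 8) + ρ (T (-8))) * ρ (d 2 _ h2h) := by
    rw [hcT, mul_add, ← map_mul, ← map_mul, d_T, d_T, map_mul, map_mul, add_mul]
    norm_num
  have h6 : ρ (T 8) + ρ (T (-8)) = ρ (T 2) + ρ (T (-2)) := by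
    have h7 : (ρ (T 8) + ρ (T (-8))) * ρ (d 2 _ h2h) = (ρ (T 2) + ρ (T (-2))) * ρ (d 2 _ h2h) := by
      rw [← h5, hd, hcT]
    calc ρ (T 8) + ρ (T (-8)) = (ρ (T 8) + ρ (T (-8))) * (ρ (d 2 _ h2h) * ρ (d 2 _ h2h)⁻¹) := by
          rw [rho_inv, mul_one]
      _ = (ρ (T 2) + ρ (T (-2))) * (ρ (d 2 _ h2h) * ρ (d 2 _ h2h)⁻¹) := by
          rw [← mul_assoc, h7, mul_assoc]
      _ = _ := by rw [rho_inv, mul_one]
  have hne : ∀ k : ℕ, 0 < k → k < p → ((k : ℕ) : ZMod p) ≠ 0 := by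
    intro k hk hkp h0
    rw [ZMod.natCast_eq_zero_iff] at h0
    exact absurd (Nat.le_of_dvd hk h0) (by omega)
  have h10 : (10 : ZMod p) ≠ 0 := by
    have e : (10 : ZMod p) = ((2 : ℕ) : ZMod p) * ((5 : ℕ) : ZMod p) := by norm_num
    rw [e]
    exact mul_ne_zero (hne 2 (by norm_num) (by omega)) (hne 5 (by norm_num) (by omega))
  have h66 : (6 : ZMod p) ≠ 0 := by
    have e : (6 : ZMod p) = ((2 : ℕ) : ZMod p) * ((3 : ℕ) : ZMod p) := by norm_num
    rw [e]
    exact mul_ne_zero (hne 2 (by norm_num) (by omega)) (hne 3 (by norm_num) (by omega))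
  apply hT 6 h66
  apply hT 10 h10
  have e1 : (ρ (T 10) - 1) * ((ρ (T 6) - 1) * 1) = ρ (T 8) * ((ρ (T 8) + ρ (T (-8))) - (ρ (T 2) + ρ (T (-2)))) := by
    have e2 : ∀ i j : ZMod p, ρ (T i) * ρ (T j) = ρ (T (i + j)) := fun i j => by rw [← map_mul, T_mul]
    rw [mul_one, sub_mul, mul_sub, one_mul, mul_one, e2, mul_sub, mul_add, mul_add, e2, e2, e2, e2]
    norm_num [T_zero]
    abel
  rw [e1, h6, sub_self, mul_zero]

/-- **The Frobenius trick.** -/
theorem frob (hT : Fpf (ρ (T 1))) {a b : ZMod p} (h : a * b = 1) {t : ℕ} (ht : 0 < t) (hat : ρ (d a b h ^ t) = 1)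
    (hd : Fpf (ρ (d a b h))) (hord : ∀ i : ℕ, 0 < i → i < t → (a * a) ^ i ≠ 1) : ((p : ℕ) : R) = 0 := by
  set D := ρ (d a b h) with hD
  -- the sum over the torus
  have h1 : ∑ i ∈ Finset.range t, D ^ i = 0 := by
    apply hd
    have h2 := mul_geom_sum D t
    rw [h2, hD, ← map_pow, hat, sub_self]
  have h2 : ∑ j : ZMod p, ρ (T j) = 0 := by
    apply hT
    rw [sub_mul, one_mul, Finset.mul_sum, sub_eq_zero]
    refine Fintype.sum_equiv (Equiv.addLeft 1) _ _ fun j => ?_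
    rw [← map_mul, T_mul]
    rfl
  have hdi : ∀ (i : ℕ) (j : ZMod p), D ^ i * ρ (T j) = ρ (T ((a * a) ^ i * j)) * D ^ i := by
    intro i
    induction i with
    | zero => intro j; simp
    | succ i ih =>
      intro j
      rw [pow_succ, mul_assoc, hD, ← map_mul ρ (d a b h) (T j), d_T, map_mul, ← hD, ← mul_assoc, ih, mul_assoc,
        pow_succ]
      congr 3
      ring
  have h3 : ∀ i ∈ Finset.range t, i ≠ 0 → ∑ j : ZMod p, ρ (T j) * D ^ i * ρ (T (-j)) = 0 := by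
    intro i hi hi0
    rw [Finset.mem_range] at hi
    have h4 : ∀ j : ZMod p, ρ (T j) * D ^ i * ρ (T (-j)) = ρ (T (j * (1 - (a * a) ^ i))) * D ^ i := by
      intro j
      rw [mul_assoc, hdi, ← mul_assoc, ← map_mul, T_mul]
      congr 3
      ring
    rw [Finset.sum_congr rfl fun j _ => h4 j, ← Finset.sum_mul]
    have h5 : (1 - (a * a) ^ i) ≠ 0 := sub_ne_zero.2 (Ne.symm (hord i (by omega) hi))
    have h6 : ∑ j : ZMod p, ρ (T (j * (1 - (a * a) ^ i))) = ∑ j : ZMod p, ρ (T j) :=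
      Fintype.sum_equiv (Equiv.mulRight₀ _ h5) _ _ fun j => rfl
    rw [h6, h2, zero_mul]
  have h4 : ∑ j : ZMod p, ρ (T j) * (∑ i ∈ Finset.range t, D ^ i) * ρ (T (-j)) = 0 := by
    rw [h1]
    simp
  have h5 : ∑ j : ZMod p, ρ (T j) * (∑ i ∈ Finset.range t, D ^ i) * ρ (T (-j)) =
      ∑ i ∈ Finset.range t, ∑ j : ZMod p, ρ (T j) * D ^ i * ρ (T (-j)) := by
    rw [Finset.sum_comm]
    refine Finset.sum_congr rfl fun j _ => ?_
    rw [Finset.mul_sum, Finset.sum_mul]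
  rw [h5, Finset.sum_eq_single 0 (fun i hi h0 => h3 i hi h0) (fun h0 => absurd (Finset.mem_range.2 ht) h0)] at h4
  have h6 : ∀ j : ZMod p, ρ (T j) * D ^ 0 * ρ (T (-j)) = 1 := by
    intro j
    rw [pow_zero, mul_one, ← map_mul, T_mul, add_neg_cancel, T_zero, map_one]
  rw [Finset.sum_congr rfl fun j _ => h6 j, Finset.sum_const, Finset.card_univ, ZMod.card, nsmul_one] at h4
  exact h4

end Cfsg.Agent.H432.PG.ModRing
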